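import Mathlib
import Cfsg.Agent.Lib.Helper8.OFus.Defs

/-!
# S2720 / S2721 package [M]

Given a similarity `s₀` of `Q` with multiplier `μ` there is a similarity `t` with the same
multiplier commuting with `A` and with `det t = μ ^ (dim V / 2)`.

`conj_core` gives an isometry `γ` with `γ A = (s₀ A s₀⁻¹) γ`; `t₀ = γ⁻¹ s₀` commutes with `A`,
`det t₀ ^ 2 = μ ^ dim` (Gram matrix).  If `A` has no fixed vector, DET0 applies; otherwise there
is a fixed vector `v` with `Q v ≠ 0` (the fixed space is orthogonal to `range (A - 1)` and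
`V = ker (A - 1) + range (A - 1)`), and `t₀ ∘ reflLin Q v` has the other sign.
-/

set_option autoImplicit false

universe u

namespace Cfsg.Agent.Lib.Helper29.OFus

open Polynomial Module
open Cfsg.Agent.Lib.Helper8.WallBasic Cfsg.Agent.Lib.Helper8.WallForm
open Cfsg.Agent.Lib.Helper8.OFus
open Cfsg.Agent.Lib.Helper14 (reflLin)

section

variable {F : Type u} [Field F] {V : Type u} [AddCommGroup V] [Module F V]

/-- The determinant of a reflection is `-1`. -/
theorem det_reflLin [FiniteDimensional F V] (Q : QuadraticForm F V) {v : V} (hv : Q v ≠ 0) :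
    LinearMap.det (reflLin Q v) = -1 := by
  have h : reflLin Q v =
      LinearMap.transvection (-((Q v)⁻¹ • QuadraticMap.polarBilin Q v)) v := by
    ext x
    rw [Cfsg.Agent.Lib.Helper14.reflLin_apply, LinearMap.transvection.apply]
    simp only [LinearMap.neg_apply, LinearMap.smul_apply, smul_eq_mul, neg_smul]
    rw [sub_eq_add_neg]
    rfl
  rw [h, LinearMap.transvection.det]
  simp only [LinearMap.neg_apply, LinearMap.smul_apply, smul_eq_mul]
  have h2 : QuadraticMap.polarBilin Q v v = 2 * Q v :=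
    Cfsg.Agent.Lib.Helper14.polar_self_eq Q v
  rw [h2]
  field_simp
  ring

/-- The square of the determinant of a similarity with multiplier `μ` of a non-degenerate
bilinear form is `μ ^ dim`. -/
theorem det_sq_of_similarity [FiniteDimensional F V] (β : LinearMap.BilinForm F V)
    (hβ : β.Nondegenerate) (t : V →ₗ[F] V) (μ : F)
    (ht : ∀ x y, β (t x) (t y) = μ * β x y) :
    LinearMap.det t ^ 2 = μ ^ finrank F V := by
  classical
  obtain ⟨b⟩ : Nonempty (Basis (Fin (finrank F V)) F V) := ⟨Module.finBasis F V⟩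
  have hcomp : β.comp t t = μ • β := by
    ext x y
    simp only [LinearMap.BilinForm.comp_apply, LinearMap.smul_apply, smul_eq_mul]
    exact ht x y
  have hM := LinearMap.BilinForm.toMatrix_comp b b β t t
  rw [hcomp] at hM
  have hsm : LinearMap.BilinForm.toMatrix b (μ • β) = μ • LinearMap.BilinForm.toMatrix b β :=
    map_smul _ _ _
  rw [hsm] at hM
  have hdet := congrArg Matrix.det hM
  rw [Matrix.det_smul, Matrix.det_mul, Matrix.det_mul, Matrix.det_transpose,
    LinearMap.det_toMatrix, Fintype.card_fin] at hdet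
  have hG : (LinearMap.BilinForm.toMatrix b β).det ≠ 0 :=
    (LinearMap.BilinForm.nondegenerate_iff_det_ne_zero b).mp hβ
  have h1 : LinearMap.det t ^ 2 * (LinearMap.BilinForm.toMatrix b β).det =
      μ ^ finrank F V * (LinearMap.BilinForm.toMatrix b β).det := by
    rw [hdet]
    ring
  exact mul_right_cancel₀ hG h1

end

/-- **Package M.** -/
theorem pkgM_of_det0 (h : PkgDet0.{u}) : PkgM.{u} := by
  intro F _ _ V _ _ _ Q N A S hev s₀ μ hμ hs₀
  have SS := S.setup
  have hβapp : ∀ x y, QuadraticMap.polarBilin Q x y = Q (x + y) - Q x - Q y := fun x y => rfl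
  obtain ⟨B, hB⟩ : ∃ B : V →ₗ[F] V, B = s₀.toLinearMap ∘ₗ A ∘ₗ s₀.symm.toLinearMap := ⟨_, rfl⟩
  have hBapp : ∀ v, B v = s₀ (A (s₀.symm v)) := fun v => by rw [hB]; rfl
  have hBQ : ∀ v, Q (B v) = Q v := by
    intro v
    rw [hBapp, hs₀, S.isom]
    have h1 := hs₀ (s₀.symm v)
    rw [LinearEquiv.apply_symm_apply] at h1
    exact h1.symm
  have hg : ∀ v, s₀ (A v) = B (s₀ v) := by
    intro v
    rw [hBapp, LinearEquiv.symm_apply_apply]
  obtain ⟨γ, hγQ, hγ⟩ := Cfsg.Agent.Lib.Helper8.WallInd.conj_core Q S.nondeg A B N S.odd S.ne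
    S.pow S.isom hBQ s₀ hg
  obtain ⟨t₀, ht₀⟩ : ∃ t₀ : V ≃ₗ[F] V, t₀ = s₀.trans γ.symm := ⟨_, rfl⟩
  have ht₀app : ∀ v, t₀ v = γ.symm (s₀ v) := fun v => by rw [ht₀]; rfl
  have hγsQ : ∀ v, Q (γ.symm v) = Q v := by
    intro v
    have h1 := hγQ (γ.symm v)
    rw [LinearEquiv.apply_symm_apply] at h1
    exact h1.symm
  have ht₀Q : ∀ v, Q (t₀ v) = μ * Q v := by
    intro v
    rw [ht₀app, hγsQ, hs₀]
  have hγs : ∀ w, γ.symm (B w) = A (γ.symm w) := by
    intro w
    apply γ.injective
    rw [LinearEquiv.apply_symm_apply, hγ, LinearEquiv.apply_symm_apply]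
  have ht₀A : ∀ v, t₀ (A v) = A (t₀ v) := by
    intro v
    rw [ht₀app, ht₀app, hg, hγs]
  by_cases hfix : ∀ v, A v = v → v = 0
  · exact ⟨t₀, ht₀Q, ht₀A, h Q N A S hfix (t₀ : V →ₗ[F] V) μ hμ ht₀Q ht₀A⟩
  · push_neg at hfix
    obtain ⟨v₀, hv₀, hv₀ne⟩ := hfix
    -- a fixed vector with `Q v ≠ 0`
    obtain ⟨v, hvA, hvQ⟩ : ∃ v, A v = v ∧ Q v ≠ 0 := by
      by_contra hcon
      push_neg at hcon
      apply hv₀ne
      apply S.nondeg.1
      intro w
      have htop : LinearMap.ker (A - 1) ⊔ LinearMap.range (A - 1) = ⊤ := by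
        apply Submodule.eq_top_of_disjoint
        · exact le_of_eq (by rw [add_comm, LinearMap.finrank_range_add_finrank_ker])
        · rw [Submodule.disjoint_def]
          intro x hx hx'
          apply Cfsg.Agent.Lib.Helper8.WallInd.fix_range SS x hx'
          have h1 := LinearMap.mem_ker.mp hx
          rw [LinearMap.sub_apply, Module.End.one_apply, sub_eq_zero] at h1
          exact h1
      have hw : w ∈ LinearMap.ker (A - 1) ⊔ LinearMap.range (A - 1) := by
        rw [htop]
        trivial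
      obtain ⟨k, hk, r, hr, rfl⟩ := Submodule.mem_sup.mp hw
      have hkA : A k = k := by
        have h1 := LinearMap.mem_ker.mp hk
        rw [LinearMap.sub_apply, Module.End.one_apply, sub_eq_zero] at h1
        exact h1
      obtain ⟨z, rfl⟩ := hr
      rw [map_add]
      have h1 : QuadraticMap.polarBilin Q v₀ k = 0 := by
        rw [hβapp, hcon v₀ hv₀, hcon k hkA, hcon (v₀ + k) (by rw [map_add, hv₀, hkA])]
        ring
      have h2 : QuadraticMap.polarBilin Q v₀ ((A - 1) z) = 0 := by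
        rw [LinearMap.sub_apply, Module.End.one_apply, map_sub]
        have h3 := SS.isom v₀ z
        rw [hv₀] at h3
        rw [h3, sub_self]
      rw [h1, h2, add_zero]
    -- `det t₀ = ± μ ^ (n / 2)`
    have hsim : ∀ x y, QuadraticMap.polarBilin Q (t₀ x) (t₀ y) =
        μ * QuadraticMap.polarBilin Q x y := by
      intro x y
      rw [hβapp, hβapp, ← map_add, ht₀Q, ht₀Q, ht₀Q]
      ring
    have hsq := det_sq_of_similarity (QuadraticMap.polarBilin Q) S.nondeg (t₀ : V →ₗ[F] V) μ
      hsim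
    obtain ⟨k, hk⟩ := hev
    have hhalf : finrank F V / 2 = k := by omega
    rw [hhalf]
    have hsq' : LinearMap.det (t₀ : V →ₗ[F] V) ^ 2 = (μ ^ k) ^ 2 := by
      rw [hsq, hk, ← pow_mul]
      congr 1
      omega
    rcases sq_eq_sq_iff_eq_or_eq_neg.mp hsq' with hd | hd
    · exact ⟨t₀, ht₀Q, ht₀A, hd⟩
    · have hrr := Cfsg.Agent.Lib.Helper14.reflLin_mul_self Q hvQ
      obtain ⟨r, hr⟩ : ∃ r : V ≃ₗ[F] V, (r : V →ₗ[F] V) = reflLin Q v :=
        ⟨LinearEquiv.ofLinear (reflLin Q v) (reflLin Q v) hrr hrr, rfl⟩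
      have hrapp : ∀ x, r x = reflLin Q v x := fun x => by rw [← hr]; rfl
      refine ⟨r.trans t₀, ?_, ?_, ?_⟩
      · intro x
        show Q (t₀ (r x)) = μ * Q x
        rw [ht₀Q, hrapp, Cfsg.Agent.Lib.Helper14.reflLin_isometry Q hvQ]
      · intro x
        show t₀ (r (A x)) = A (t₀ (r x))
        have hc : r (A x) = A (r x) := by
          rw [hrapp, hrapp, Cfsg.Agent.Lib.Helper14.reflLin_apply,
            Cfsg.Agent.Lib.Helper14.reflLin_apply, map_sub, map_smul, hvA]
          have h3 := SS.isom v x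
          rw [hvA] at h3
          have h4 : QuadraticMap.polar (⇑Q) v (A x) = QuadraticMap.polar (⇑Q) v x := h3
          rw [h4]
        rw [hc, ht₀A]
      · have hco : ((r.trans t₀ : V ≃ₗ[F] V) : V →ₗ[F] V) =
            (t₀ : V →ₗ[F] V) * (r : V →ₗ[F] V) := LinearMap.ext fun x => rfl
        rw [hco, map_mul, hd, hr, det_reflLin Q hvQ]
        ring

end Cfsg.Agent.Lib.Helper29.OFus
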